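import Mathlib

set_option autoImplicit false

namespace Cfsg.Agent.Lib.Frobenius.Lift

open Matrix

section Trace
variable {K : Type*} [Field K]

theorem trace_mulLeft_matrix {d : ℕ} (A : Matrix (Fin d) (Fin d) K) :
    LinearMap.trace K _ (LinearMap.mulLeft K A) = (d : K) * A.trace := by
  classical
  rw [LinearMap.trace_eq_matrix_trace K (Matrix.stdBasis K (Fin d) (Fin d))]
  have hrepr : ∀ (X : Matrix (Fin d) (Fin d) K) (ij : Fin d × Fin d),
      (Matrix.stdBasis K (Fin d) (Fin d)).repr X ij = X ij.1 ij.2 := by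
    intro X ij
    simp [Matrix.stdBasis]
  have hterm : ∀ i j : Fin d, (A * Matrix.single i j (1 : K)) i j = A i i := by
    intro i j
    rw [Matrix.mul_single_apply_same, mul_one]
  simp only [Matrix.trace, Matrix.diag, LinearMap.toMatrix_apply, hrepr]
  rw [Fintype.sum_prod_type]
  simp only [Matrix.stdBasis_eq_single, LinearMap.mulLeft_apply, hterm]
  simp [Finset.mul_sum]

theorem trace_mulLeft_pi {ι : Type*} [Fintype ι] (M : ι → Type*) [∀ i, Ring (M i)]
    [∀ i, Algebra K (M i)] [∀ i, Module.Finite K (M i)] (X : Π i, M i) :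
    LinearMap.trace K _ (LinearMap.mulLeft K X) =
      ∑ i, LinearMap.trace K _ (LinearMap.mulLeft K (X i)) := by
  classical
  have h1 : LinearMap.mulLeft K X =
      ∑ i, (LinearMap.single K M i) ∘ₗ ((LinearMap.mulLeft K (X i)) ∘ₗ LinearMap.proj i) := by
    ext x i
    simp [Finset.sum_apply]
  rw [h1, map_sum]
  refine Finset.sum_congr rfl fun i _ => ?_
  rw [LinearMap.trace_comp_comm']
  congr 1
  ext x
  simp

variable {G : Type*} [Group G]

open scoped Classical in
theorem trace_mulLeft_of [Finite G] (h : G) :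
    LinearMap.trace K (MonoidAlgebra K G) (LinearMap.mulLeft K (MonoidAlgebra.of K G h)) =
      if h = 1 then (Nat.card G : K) else 0 := by
  classical
  have := Fintype.ofFinite G
  rw [LinearMap.trace_eq_matrix_trace K (MonoidAlgebra.basis G K)]
  have hrepr : ∀ (x : MonoidAlgebra K G) (g : G), (MonoidAlgebra.basis G K).repr x g = x.coeff g := by
    intro x g
    rfl
  simp only [Matrix.trace, Matrix.diag, LinearMap.toMatrix_apply, hrepr, MonoidAlgebra.basis_apply,
    LinearMap.mulLeft_apply, MonoidAlgebra.of_apply, MonoidAlgebra.single_mul_single, one_mul]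
  split_ifs with h1
  · subst h1
    simp [Nat.card_eq_fintype_card]
  · simp [h1]

open scoped Classical in
theorem regular_trace [Finite G] {r : ℕ} {d : Fin r → ℕ}
    (e : MonoidAlgebra K G ≃ₐ[K] Π i, Matrix (Fin (d i)) (Fin (d i)) K) (h : G) :
    ∑ i, (d i : K) * (e (MonoidAlgebra.of K G h) i).trace =
      if h = 1 then (Nat.card G : K) else 0 := by
  classical
  rw [← trace_mulLeft_of h]
  have : Module.Finite K (MonoidAlgebra K G) :=
    Module.Finite.of_basis (MonoidAlgebra.basis G K)
  have h2 : e.toLinearEquiv.conj (LinearMap.mulLeft K (MonoidAlgebra.of K G h)) =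
      LinearMap.mulLeft K (e (MonoidAlgebra.of K G h)) := by
    refine LinearMap.ext fun x => ?_
    simp [LinearEquiv.conj_apply]
  rw [← LinearMap.trace_conj' _ e.toLinearEquiv, h2, trace_mulLeft_pi]
  exact Finset.sum_congr rfl fun i _ => (trace_mulLeft_matrix _).symm

end Trace

section Lattice
variable {K : Type*} [Field K] (O : ValuationSubring K)

theorem exists_conj_integral {G : Type*} [Group G] [Finite G] {m : Type*} [Fintype m] [DecidableEq m]
    (ρ : G →* Matrix (m) (m) K) :
    ∃ P : Matrix (m) (m) K, IsUnit P.det ∧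
      ∀ (g : G) (i j : m), (P⁻¹ * ρ g * P) i j ∈ O := by
  classical
  let ι := G × m
  let M : (m → ι) → Matrix (m) (m) K := fun f => Matrix.of fun i l => ρ (f l).1 i (f l).2
  have : Nonempty (m → ι) := ⟨fun l => (1, l)⟩
  obtain ⟨f₀, hf₀⟩ := Finite.exists_max (fun f : m → ι => O.valuation (M f).det)
  have h1 : M (fun l => (1, l)) = 1 := by
    ext i l
    simp [M, Matrix.one_apply]
  have h2 : (M f₀).det ≠ 0 := by
    intro h0
    have h3 := hf₀ (fun l => (1, l))
    rw [h1, Matrix.det_one, h0, map_zero, map_one] at h3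
    exact absurd h3 (not_le.mpr zero_lt_one)
  refine ⟨M f₀, (isUnit_iff_ne_zero).mpr h2, fun g i l => ?_⟩
  set P := M f₀ with hP
  have hcol : (ρ g * P).col l = fun r => ρ (g * (f₀ l).1) r (f₀ l).2 := by
    ext r
    simp [P, M, Matrix.mul_apply, map_mul]
  have hent : (P⁻¹ * ρ g * P) i l = (P.det)⁻¹ * (P.updateCol i (fun r => ρ (g * (f₀ l).1) r (f₀ l).2)).det := by
    rw [Matrix.mul_assoc, Matrix.mul_apply]
    have h4 : ∀ s, (ρ g * P) s l = ρ (g * (f₀ l).1) s (f₀ l).2 := fun s => congrFun hcol s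
    simp only [h4]
    rw [Matrix.inv_def, Ring.inverse_eq_inv']
    rw [← Matrix.cramer_apply, Matrix.cramer_eq_adjugate_mulVec]
    simp [Matrix.mulVec, dotProduct, Finset.mul_sum, mul_assoc]
  rw [hent]
  rw [← ValuationSubring.valuation_le_one_iff, map_mul, map_inv₀]
  have h5 : P.updateCol i (fun r => ρ (g * (f₀ l).1) r (f₀ l).2) =
      M (Function.update f₀ i (g * (f₀ l).1, (f₀ l).2)) := by
    ext r s
    by_cases hs : s = i
    · subst hs
      simp [M]
    · simp [M, hs, P]
  rw [h5]
  have h6 := hf₀ (Function.update f₀ i (g * (f₀ l).1, (f₀ l).2))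
  have h7 : O.valuation (M f₀).det ≠ 0 := by
    simpa using h2
  rw [mul_comm]
  exact mul_inv_le_one_of_le₀ h6 zero_le


variable {O}

/-- An integral form of a representation. -/
theorem exists_integral_form {G : Type*} [Group G] [Finite G] {m : Type*} [Fintype m] [DecidableEq m]
    (ρ : G →* Matrix (m) (m) K) :
    ∃ (P : Matrix (m) (m) K) (ρO : G →* Matrix (m) (m) O), IsUnit P.det ∧
      ∀ g, (O.subtype).mapMatrix (ρO g) = P⁻¹ * ρ g * P := by
  classical
  obtain ⟨P, hP, h⟩ := exists_conj_integral O ρ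
  have hinj : Function.Injective ((O.subtype).mapMatrix (m := m)) := by
    intro A B hAB
    ext i j
    have := congrFun (congrFun hAB i) j
    simpa using this
  let f : G → Matrix (m) (m) O := fun g => Matrix.of fun i j => ⟨_, h g i j⟩
  have hf : ∀ g, (O.subtype).mapMatrix (f g) = P⁻¹ * ρ g * P := by
    intro g
    ext i j
    rfl
  refine ⟨P, { toFun := f, map_one' := ?_, map_mul' := ?_ }, hP, hf⟩
  · apply hinj
    rw [hf, map_one, map_one, Matrix.mul_one, Matrix.nonsing_inv_mul _ hP]
  · intro a b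
    apply hinj
    rw [map_mul, hf, hf, hf, map_mul]
    have : P⁻¹ * ρ a * P * (P⁻¹ * ρ b * P) = P⁻¹ * ρ a * (P * P⁻¹) * ρ b * P := by
      simp only [Matrix.mul_assoc]
    rw [this, Matrix.mul_nonsing_inv _ hP, Matrix.mul_one, Matrix.mul_assoc P⁻¹ (ρ a) (ρ b)]

end Lattice

section Residue
variable {K : Type*} [Field K] {O : ValuationSubring K}

/-- The residue field of a valuation subring. -/
abbrev Res (O : ValuationSubring K) := IsLocalRing.ResidueField O

/-- reduction of an integral matrix representation. -/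
noncomputable def reduce {G : Type*} [Group G] {m : Type*} [Fintype m] [DecidableEq m] (ρO : G →* Matrix (m) (m) O) :
    G →* Matrix (m) (m) (Res O) :=
  ((IsLocalRing.residue O).mapMatrix (m := m)).toMonoidHom.comp ρO

theorem reduce_apply {G : Type*} [Group G] {m : Type*} [Fintype m] [DecidableEq m] (ρO : G →* Matrix (m) (m) O) (g : G) :
    reduce ρO g = (IsLocalRing.residue O).mapMatrix (ρO g) := rfl

/-- A fixed vector in characteristic `0` gives one in the residue field. -/
theorem fpf_of_reduction {G : Type*} [Group G] {m : Type*} [Fintype m] [DecidableEq m] {ρ : G →* Matrix (m) (m) K}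
    {P : Matrix (m) (m) K} {ρO : G →* Matrix (m) (m) O} (hP : IsUnit P.det)
    (h : ∀ g, (O.subtype).mapMatrix (ρO g) = P⁻¹ * ρ g * P) (g : G)
    (hfpf : ∀ v : m → Res O, reduce ρO g *ᵥ v = v → v = 0)
    (u : m → K) (hu : ρ g *ᵥ u = u) : u = 0 := by
  classical
  by_contra hu0
  set u' : m → K := P⁻¹ *ᵥ u with hu'
  have hPu : P *ᵥ u' = u := by
    rw [hu', Matrix.mulVec_mulVec, Matrix.mul_nonsing_inv _ hP, Matrix.one_mulVec]
  have hu'0 : u' ≠ 0 := by
    intro h0
    apply hu0
    rw [← hPu, h0, Matrix.mulVec_zero]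
  have hfix : (P⁻¹ * ρ g * P) *ᵥ u' = u' := by
    rw [← Matrix.mulVec_mulVec, hPu, ← Matrix.mulVec_mulVec, hu]
  obtain ⟨r0, hr0⟩ : ∃ r, u' r ≠ 0 := by
    by_contra hcon
    push Not at hcon
    exact hu'0 (funext hcon)
  have : Nonempty (m) := ⟨r0⟩
  obtain ⟨r, hr⟩ := Finite.exists_max (fun i => O.valuation (u' i))
  have hur : u' r ≠ 0 := by
    intro h0
    have := hr r0
    rw [h0, map_zero] at this
    have h1 : O.valuation (u' r0) ≠ 0 := by simpa using hr0
    exact h1 (le_antisymm this zero_le)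
  have hmem : ∀ i, (u' r)⁻¹ * u' i ∈ O := by
    intro i
    rw [← ValuationSubring.valuation_le_one_iff, map_mul, map_inv₀, mul_comm]
    exact mul_inv_le_one_of_le₀ (hr i) zero_le
  let w : m → O := fun i => ⟨_, hmem i⟩
  have hwr : w r = 1 := by
    apply Subtype.ext
    change (u' r)⁻¹ * u' r = 1
    exact inv_mul_cancel₀ hur
  have hw : ρO g *ᵥ w = w := by
    funext i
    apply Subtype.ext
    have h1 : (P⁻¹ * ρ g * P) *ᵥ ((u' r)⁻¹ • u') = (u' r)⁻¹ • u' := by
      rw [Matrix.mulVec_smul, hfix]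
    have h2 := congrFun h1 i
    rw [← h g] at h2
    simp only [Matrix.mulVec, dotProduct, Pi.smul_apply, smul_eq_mul] at h2
    change ((∑ j, ρO g i j * w j : O) : K) = (u' r)⁻¹ * u' i
    rw [← h2]
    simp [w]
  have hv := hfpf (fun i => IsLocalRing.residue O (w i)) (by
    funext i
    have h1 := congrFun hw i
    simp only [Matrix.mulVec, dotProduct] at h1 ⊢
    rw [← h1, map_sum]
    rfl)
  have h3 := congrFun hv r
  simp only [hwr, map_one, Pi.zero_apply] at h3
  exact one_ne_zero h3

/-- Fixed-point-freeness passes to the reduction, when the order of the group is invertible. -/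
theorem reduction_fpf {G : Type*} [Group G] [Finite G] {m : Type*} [Fintype m] [DecidableEq m] {ρ : G →* Matrix (m) (m) K}
    {P : Matrix (m) (m) K} {ρO : G →* Matrix (m) (m) O} (hP : IsUnit P.det)
    (h : ∀ g, (O.subtype).mapMatrix (ρO g) = P⁻¹ * ρ g * P) (hG : (Nat.card G : Res O) ≠ 0) (g : G)
    (hfpf : ∀ u : m → K, ρ g *ᵥ u = u → u = 0) (v : m → Res O)
    (hv : reduce ρO g *ᵥ v = v) : v = 0 := by
  classical
  set ord := orderOf g with hm
  have hm0 : 0 < ord := orderOf_pos g
  let E : Matrix (m) (m) O := ∑ j ∈ Finset.range ord, ρO (g ^ j)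
  have hE : ρO g * E = E := by
    simp only [E, Finset.mul_sum, ← map_mul, ← pow_succ']
    have h1 := Finset.sum_range_succ (fun j => ρO (g ^ j)) ord
    have h2 := Finset.sum_range_succ' (fun j => ρO (g ^ j)) ord
    rw [h1] at h2
    simp only [hm, pow_orderOf_eq_one, pow_zero] at h2
    exact (add_right_cancel h2).symm
  have hE0 : E = 0 := by
    ext i j
    have h1 := congrArg (O.subtype).mapMatrix hE
    rw [map_mul, h g] at h1
    set c : m → K := fun i => (E i j : K) with hc
    have h2 : (P⁻¹ * ρ g * P) *ᵥ c = c := by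
      funext r
      have h3 := congrFun (congrFun h1 r) j
      rw [Matrix.mul_apply] at h3
      simpa [Matrix.mulVec, dotProduct, c] using h3
    have h3 : ρ g *ᵥ (P *ᵥ c) = P *ᵥ c := by
      have h4 := congrArg (fun x => P *ᵥ x) h2
      simp only [Matrix.mulVec_mulVec] at h4
      have h5 : P * (P⁻¹ * ρ g * P) = ρ g * P := by
        rw [← Matrix.mul_assoc, ← Matrix.mul_assoc, Matrix.mul_nonsing_inv _ hP, Matrix.one_mul]
      rw [h5] at h4
      simpa [Matrix.mulVec_mulVec] using h4
    have h4 := hfpf _ h3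
    have h5 : c = 0 := by
      have h6 := congrArg (fun x => P⁻¹ *ᵥ x) h4
      simp only [Matrix.mulVec_mulVec, Matrix.nonsing_inv_mul _ hP, Matrix.one_mulVec,
        Matrix.mulVec_zero] at h6
      exact h6
    have h6 := congrFun h5 i
    simpa [c] using h6
  have h1 : (reduce ρO g) ^ ord = 1 := by
    rw [← map_pow, hm, pow_orderOf_eq_one, map_one]
  have h2 : ∀ j : ℕ, reduce ρO (g ^ j) *ᵥ v = v := by
    intro j
    rw [map_pow]
    induction j with
    | zero => simp
    | succ j ih => rw [pow_succ, ← Matrix.mulVec_mulVec, hv, ih]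
  have h3 : (∑ j ∈ Finset.range ord, reduce ρO (g ^ j)) = 0 := by
    have : (∑ j ∈ Finset.range ord, reduce ρO (g ^ j)) = (IsLocalRing.residue O).mapMatrix E := by
      simp [E, reduce_apply, map_sum]
    rw [this, hE0, map_zero]
  have h4 : (∑ j ∈ Finset.range ord, reduce ρO (g ^ j)) *ᵥ v = (ord : Res O) • v := by
    rw [Matrix.sum_mulVec, Finset.sum_congr rfl (fun j _ => h2 j)]
    simp [nsmul_eq_mul, Nat.cast_smul_eq_nsmul]
  rw [h3, Matrix.zero_mulVec] at h4
  have h5 : (ord : Res O) ≠ 0 := by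
    intro h0
    apply hG
    obtain ⟨c, hc⟩ := orderOf_dvd_natCard g
    rw [hc, Nat.cast_mul, ← hm, h0, zero_mul]
  funext i
  have := congrFun h4 i
  simp only [Pi.zero_apply, Pi.smul_apply, smul_eq_mul] at this
  rcases mul_eq_zero.mp this.symm with h6 | h6
  · exact absurd h6 h5
  · exact h6

end Residue




section Main

variable {G : Type*} [Group G] [Finite G] {r : ℕ} {d : Fin r → ℕ}

omit [Finite G] in
theorem lift_apply_pi {k : Type*} [Field k] (σ : ∀ i, G →* Matrix (Fin (d i)) (Fin (d i)) k)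
    (x : MonoidAlgebra k G) (i : Fin r) :
    (MonoidAlgebra.lift k (Π i, Matrix (Fin (d i)) (Fin (d i)) k) G (MonoidHom.pi σ)) x i =
      ∑ g ∈ x.coeff.support, x.coeff g • σ i g := by
  classical
  rw [MonoidAlgebra.lift_apply, Finsupp.sum, Finset.sum_apply]
  rfl

open scoped Classical in
theorem lift_injective {k : Type*} [Field k] {σ : ∀ i, G →* Matrix (Fin (d i)) (Fin (d i)) k}
    (hG : (Nat.card G : k) ≠ 0)
    (ht : ∀ g, ∑ i, (d i : k) * (σ i g).trace = if g = 1 then (Nat.card G : k) else 0) :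
    Function.Injective (MonoidAlgebra.lift k (Π i, Matrix (Fin (d i)) (Fin (d i)) k) G
      (MonoidHom.pi σ)) := by
  rw [injective_iff_map_eq_zero]
  intro x hx
  have : Fintype G := Fintype.ofFinite G
  have hcoeff : ∀ g₀, x.coeff g₀ = 0 := by
    intro g₀
    have h1 : ∀ i, ∑ g ∈ x.coeff.support, x.coeff g • σ i g = 0 := by
      intro i
      rw [← lift_apply_pi, hx]
      rfl
    have h3 : ∀ i, (σ i g₀⁻¹ * ∑ g ∈ x.coeff.support, x.coeff g • σ i g).trace =
        ∑ g ∈ x.coeff.support, x.coeff g * (σ i (g₀⁻¹ * g)).trace := by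
      intro i
      rw [Finset.mul_sum, Matrix.trace_sum]
      refine Finset.sum_congr rfl fun g _ => ?_
      rw [Matrix.mul_smul, Matrix.trace_smul, map_mul, smul_eq_mul]
    have h2 : ∑ i, (d i : k) * ∑ g ∈ x.coeff.support, x.coeff g * (σ i (g₀⁻¹ * g)).trace = 0 := by
      simp only [← h3, h1]
      simp
    simp only [Finset.mul_sum] at h2
    rw [Finset.sum_comm] at h2
    have h4 : ∀ g, ∑ i, (d i : k) * (x.coeff g * (σ i (g₀⁻¹ * g)).trace) =
        x.coeff g * (if g₀⁻¹ * g = 1 then (Nat.card G : k) else 0) := by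
      intro g
      rw [← ht, Finset.mul_sum]
      refine Finset.sum_congr rfl fun i _ => by ring
    simp only [h4] at h2
    by_cases hmem : g₀ ∈ x.coeff.support
    · rw [Finset.sum_eq_single g₀] at h2
      · simp only [inv_mul_cancel, if_true] at h2
        exact (mul_eq_zero.mp h2).resolve_right hG
      · intro g _ hne
        have : g₀⁻¹ * g ≠ 1 := by
          intro h
          apply hne
          rw [inv_mul_eq_one] at h
          exact h.symm
        simp [this]
      · intro h
        exact absurd hmem h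
    · simpa using hmem
  ext g
  simpa using hcoeff g

theorem lift_bijective {k : Type*} [Field k] {σ : ∀ i, G →* Matrix (Fin (d i)) (Fin (d i)) k}
    (hinj : Function.Injective (MonoidAlgebra.lift k (Π i, Matrix (Fin (d i)) (Fin (d i)) k) G
      (MonoidHom.pi σ)))
    (hdim : ∑ i, d i * d i = Nat.card G) :
    Function.Bijective (MonoidAlgebra.lift k (Π i, Matrix (Fin (d i)) (Fin (d i)) k) G
      (MonoidHom.pi σ)) := by
  have : Fintype G := Fintype.ofFinite G
  have hfin : Module.Finite k (MonoidAlgebra k G) :=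
    Module.Finite.of_basis (MonoidAlgebra.basis G k)
  have h1 : Module.finrank k (MonoidAlgebra k G) = Nat.card G := by
    rw [Module.finrank_eq_card_basis (MonoidAlgebra.basis G k), Nat.card_eq_fintype_card]
  have h2 : Module.finrank k (Π i, Matrix (Fin (d i)) (Fin (d i)) k) = ∑ i, d i * d i := by
    rw [Module.finrank_pi_fintype]
    refine Finset.sum_congr rfl fun i _ => ?_
    simp [Module.finrank_matrix]
  have h3 := (LinearMap.injective_iff_surjective_of_finrank_eq_finrank
    (f := (MonoidAlgebra.lift k (Π i, Matrix (Fin (d i)) (Fin (d i)) k) G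
      (MonoidHom.pi σ)).toLinearMap) (by rw [h1, h2, hdim])).mp hinj
  exact ⟨hinj, h3⟩

omit [Finite G] in
theorem exists_fpf_factor {k : Type*} [Field k] {σ : ∀ i, G →* Matrix (Fin (d i)) (Fin (d i)) k}
    (hbij : Function.Bijective (MonoidAlgebra.lift k (Π i, Matrix (Fin (d i)) (Fin (d i)) k) G
      (MonoidHom.pi σ))) {n : ℕ} (hn : 0 < n) (τ : G →* Matrix (Fin n) (Fin n) k)
    (hτ : ∀ g : G, g ≠ 1 → ∀ v : Fin n → k, τ g *ᵥ v = v → v = 0) :
    ∃ i, ∀ g : G, g ≠ 1 → ∀ v : Fin (d i) → k, σ i g *ᵥ v = v → v = 0 := by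
  classical
  let Φ := AlgEquiv.ofBijective _ hbij
  let Ψ : MonoidAlgebra k G →ₐ[k] Matrix (Fin n) (Fin n) k := MonoidAlgebra.lift k _ G τ
  let Ψ' : (Π i, Matrix (Fin (d i)) (Fin (d i)) k) →ₐ[k] Matrix (Fin n) (Fin n) k :=
    Ψ.comp Φ.symm.toAlgHom
  have hΨΦ : ∀ g, Ψ' (fun i => σ i g) = τ g := by
    intro g
    have h1 : Φ (MonoidAlgebra.of k G g) = fun i => σ i g := by
      change (MonoidAlgebra.lift k _ G (MonoidHom.pi σ)) (MonoidAlgebra.of k G g) = _
      rw [MonoidAlgebra.lift_of]
      rfl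
    change Ψ (Φ.symm (fun i => σ i g)) = τ g
    rw [← h1, AlgEquiv.symm_apply_apply]
    exact MonoidAlgebra.lift_of _ _
  have : NeZero n := ⟨hn.ne'⟩
  have : Nonempty (Fin n) := ⟨⟨0, hn⟩⟩
  have hne1 : (1 : Matrix (Fin n) (Fin n) k) ≠ 0 := one_ne_zero
  have hsum : (1 : Π i, Matrix (Fin (d i)) (Fin (d i)) k) = ∑ i, Pi.single i 1 := by
    ext i
    simp [Finset.sum_apply]
  obtain ⟨i, hi⟩ : ∃ i, Ψ' (Pi.single i 1) ≠ 0 := by
    by_contra hcon
    push Not at hcon
    apply hne1
    rw [← map_one Ψ', hsum, map_sum]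
    simp [hcon]
  refine ⟨i, fun g hg v hv => ?_⟩
  by_contra hv0
  obtain ⟨r₀, hr₀⟩ : ∃ r₀, v r₀ ≠ 0 := by
    by_contra hcon
    push Not at hcon
    exact hv0 (funext hcon)
  -- the rank-one matrix with column `v`
  let a : Matrix (Fin (d i)) (Fin (d i)) k := Matrix.vecMulVec v (Pi.single r₀ 1)
  have ha : σ i g * a = a := by
    rw [Matrix.mul_vecMulVec, hv]
  have hφmul : ∀ x y : Matrix (Fin (d i)) (Fin (d i)) k,
      Ψ' (Pi.single i (x * y)) = Ψ' (Pi.single i x) * Ψ' (Pi.single i y) := by
    intro x y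
    rw [← map_mul, Pi.single_mul]
  have hφa : Ψ' (Pi.single i a) ≠ 0 := by
    intro h0
    apply hi
    have h1 : ∀ t : Fin (d i), Ψ' (Pi.single i (Matrix.single t t 1)) = 0 := by
      intro t
      have h2 : Matrix.single t t (1 : k) =
          (v r₀)⁻¹ • (Matrix.single t r₀ (1 : k) * a * Matrix.single r₀ t (1 : k)) := by
        rw [Matrix.single_mul_mul_single]
        simp only [a, Matrix.vecMulVec_apply, Pi.single_eq_same, mul_one, one_mul]
        rw [Matrix.smul_single, smul_eq_mul, inv_mul_cancel₀ hr₀]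
      rw [h2]
      have h3 : Pi.single i ((v r₀)⁻¹ • (Matrix.single t r₀ (1 : k) * a * Matrix.single r₀ t (1 : k))) =
          (v r₀)⁻¹ • (Pi.single i (Matrix.single t r₀ (1 : k) * a * Matrix.single r₀ t (1 : k)) :
            Π i, Matrix (Fin (d i)) (Fin (d i)) k) := by
        rw [Pi.single_smul]
      rw [h3, map_smul, hφmul, hφmul, h0]
      simp
    have h2 : (1 : Matrix (Fin (d i)) (Fin (d i)) k) = ∑ t, Matrix.single t t (1 : k) := by
      ext s t
      rw [Matrix.sum_apply s t Finset.univ (fun u => Matrix.single u u (1 : k))]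
      by_cases hst : s = t
      · subst hst
        simp [Matrix.single_apply]
      · rw [Matrix.one_apply_ne hst]
        symm
        apply Finset.sum_eq_zero
        intro u _
        apply Matrix.single_apply_of_ne
        rintro ⟨rfl, rfl⟩
        exact hst rfl
    have h3 : (Pi.single i (∑ t, Matrix.single t t (1 : k)) : Π i, Matrix (Fin (d i)) (Fin (d i)) k) =
        ∑ t, Pi.single i (Matrix.single t t (1 : k)) :=
      map_sum (AddMonoidHom.single (fun i => Matrix (Fin (d i)) (Fin (d i)) k) i) _ _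
    rw [h2, h3, map_sum]
    exact Finset.sum_eq_zero fun t _ => h1 t
  have hfix : τ g * Ψ' (Pi.single i a) = Ψ' (Pi.single i a) := by
    rw [← hΨΦ g, ← map_mul]
    congr 1
    ext j s t
    by_cases hj : j = i
    · subst hj
      simp [ha]
    · simp [Pi.single_eq_of_ne hj]
  -- a nonzero column
  obtain ⟨s, t, hst⟩ : ∃ s t, Ψ' (Pi.single i a) s t ≠ 0 := by
    by_contra hcon
    push Not at hcon
    apply hφa
    ext s t
    exact hcon s t
  have hw := hτ g hg (fun s => Ψ' (Pi.single i a) s t) (by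
    funext s'
    have := congrFun (congrFun hfix s') t
    rw [Matrix.mul_apply] at this
    simpa [Matrix.mulVec, dotProduct] using this)
  exact hst (congrFun hw s)

end Main

section Top

variable {K : Type*} [Field K] {G : Type*} [Group G] [Finite G]

/-- A valuation subring of a field of characteristic zero in which a given prime is a non-unit. -/
theorem exists_valuationSubring [CharZero K] (p : ℕ) (hp : p.Prime) :
    ∃ O : ValuationSubring K, (p : K) ∈ O.nonunits := by
  let A : Subring K := (Int.castRingHom K).range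
  let a : A := ⟨(p : K), ⟨(p : ℤ), by simp⟩⟩
  have hI : Ideal.span {a} ≠ ⊤ := by
    intro h
    rw [Ideal.span_singleton_eq_top] at h
    obtain ⟨⟨b, ⟨m, rfl⟩⟩, hb⟩ := h.exists_right_inv
    have h1 : (p : K) * ((m : ℤ) : K) = 1 := congrArg Subtype.val hb
    have h2 : ((p : ℤ) * m : ℤ) = 1 := by
      have : (((p : ℤ) * m : ℤ) : K) = ((1 : ℤ) : K) := by
        push_cast
        exact_mod_cast h1
      exact Int.cast_injective this
    have h3 : (p : ℤ) ∣ 1 := ⟨m, h2.symm⟩
    have h4 := Int.natCast_dvd_natCast.mp (by simpa using h3 : ((p : ℕ) : ℤ) ∣ ((1 : ℕ) : ℤ))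
    exact hp.one_lt.ne' (Nat.dvd_one.mp h4)
  obtain ⟨O, -, hO⟩ := Ideal.image_subset_nonunits_valuationSubring _ hI
  exact ⟨O, hO ⟨a, Ideal.subset_span rfl, rfl⟩⟩

/-- The residue field of `O` has characteristic `p` when `p` is a non-unit. -/
theorem charP_res {O : ValuationSubring K} {p : ℕ} (hp : p.Prime) (h : (p : K) ∈ O.nonunits) :
    CharP (Res O) p := by
  have h1 : (p : Res O) = 0 := by
    have hO : ((p : O) : K) = (p : K) := by simp
    have h2 : (p : O) ∈ IsLocalRing.maximalIdeal O := by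
      rw [ValuationSubring.valuation_lt_one_iff, hO]
      exact (O.mem_nonunits_iff).mp h
    have h3 := (IsLocalRing.residue_eq_zero_iff (p : O)).mpr h2
    simpa using h3
  have h4 : ringChar (Res O) ∣ p := ringChar.dvd h1
  rcases (Nat.dvd_prime hp).mp h4 with h5 | h5
  · exact absurd h5 (CharP.ringChar_ne_one)
  · exact ringChar.of_eq h5

/-- Regular trace formula after reduction. -/
theorem regular_trace_reduce {O : ValuationSubring K} {r : ℕ} {d : Fin r → ℕ}
    (e : MonoidAlgebra K G ≃ₐ[K] Π i, Matrix (Fin (d i)) (Fin (d i)) K)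
    {P : ∀ i, Matrix (Fin (d i)) (Fin (d i)) K}
    {ρO : ∀ i, G →* Matrix (Fin (d i)) (Fin (d i)) O} (hP : ∀ i, IsUnit (P i).det)
    (h : ∀ i g, (O.subtype).mapMatrix (ρO i g) =
      (P i)⁻¹ * e (MonoidAlgebra.of K G g) i * P i) (g : G) [Decidable (g = 1)] :
    ∑ i, (d i : Res O) * (reduce (ρO i) g).trace =
      if g = 1 then (Nat.card G : Res O) else 0 := by
  classical
  have htr : ∀ i, (((ρO i g).trace : O) : K) = (e (MonoidAlgebra.of K G g) i).trace := by
    intro i
    have h1 : (((ρO i g).trace : O) : K) = (((O.subtype).mapMatrix (ρO i g))).trace := by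
      simp [Matrix.trace]
    rw [h1, h i g, Matrix.mul_assoc, Matrix.trace_mul_comm, Matrix.mul_assoc,
      Matrix.mul_nonsing_inv _ (hP i), Matrix.mul_one]
  have h0 : (∑ i, (d i : O) * (ρO i g).trace : O) = if g = 1 then (Nat.card G : O) else 0 := by
    apply Subtype.ext
    have h1 := regular_trace e g
    have h2 : ((∑ i, (d i : O) * (ρO i g).trace : O) : K) =
        ∑ i, (d i : K) * (e (MonoidAlgebra.of K G g) i).trace := by
      simp only [← htr]
      simp
    rw [h2]
    convert h1 using 1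
    split_ifs <;> simp
  have h1 := congrArg (IsLocalRing.residue O) h0
  rw [map_sum] at h1
  have h2 : ∀ i, (reduce (ρO i) g).trace = IsLocalRing.residue O (ρO i g).trace := by
    intro i
    simp [reduce_apply, Matrix.trace]
  simp only [h2]
  rw [Finset.sum_congr rfl (fun i _ => by rw [← map_natCast (IsLocalRing.residue O) (d i), ← map_mul])]
  rw [h1]
  split_ifs <;> simp

/-- **Lifting**: a fixed-point-free representation over a prime field of characteristic not dividing
the order lifts to an irreducible fixed-point-free representation in characteristic zero. -/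
theorem exists_fpf_irreducible [IsAlgClosed K] [CharZero K] {p : ℕ} [hp : Fact p.Prime]
    (hpG : ¬ p ∣ Nat.card G) {n : ℕ} (hn : 0 < n) (τ₀ : G →* Matrix (Fin n) (Fin n) (ZMod p))
    (hτ₀ : ∀ g : G, g ≠ 1 → ∀ v : Fin n → ZMod p, τ₀ g *ᵥ v = v → v = 0) :
    ∃ (d : ℕ) (ρ : G →* Matrix (Fin d) (Fin d) K), 0 < d ∧
      (∀ g : G, g ≠ 1 → ∀ u : Fin d → K, ρ g *ᵥ u = u → u = 0) ∧
      ∀ W : Submodule K (Fin d → K), (∀ g : G, ∀ w ∈ W, ρ g *ᵥ w ∈ W) → W = ⊥ ∨ W = ⊤ := by
  classical
  obtain ⟨O, hO⟩ := exists_valuationSubring (K := K) p hp.out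
  have hchar : CharP (Res O) p := charP_res hp.out hO
  have hG : (Nat.card G : Res O) ≠ 0 := by
    intro h0
    exact hpG ((CharP.cast_eq_zero_iff (Res O) p _).mp h0)
  -- Wedderburn
  have : NeZero (Nat.card G : K) := ⟨Nat.cast_ne_zero.mpr Nat.card_pos.ne'⟩
  have : Module.Finite K (MonoidAlgebra K G) :=
    Module.Finite.of_basis (MonoidAlgebra.basis G K)
  obtain ⟨r, d, hd, ⟨e⟩⟩ := IsSemisimpleRing.exists_algEquiv_pi_matrix_of_isAlgClosed K
    (MonoidAlgebra K G)
  let ρ : ∀ i, G →* Matrix (Fin (d i)) (Fin (d i)) K := fun i =>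
    { toFun := fun g => e (MonoidAlgebra.of K G g) i
      map_one' := by
        rw [map_one, map_one, Pi.one_apply]
      map_mul' := fun a b => by
        rw [map_mul, map_mul, Pi.mul_apply] }
  have hρ : ∀ i g, ρ i g = e (MonoidAlgebra.of K G g) i := fun i g => rfl
  choose P ρO hP hPρ using fun i => exists_integral_form (O := O) (ρ i)
  let σ : ∀ i, G →* Matrix (Fin (d i)) (Fin (d i)) (Res O) := fun i => reduce (ρO i)
  have ht : ∀ g, ∑ i, (d i : Res O) * (σ i g).trace = if g = 1 then (Nat.card G : Res O) else 0 :=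
    fun g => regular_trace_reduce e hP hPρ g
  have hdim : ∑ i, d i * d i = Nat.card G := by
    have h1 : Module.finrank K (MonoidAlgebra K G) = Nat.card G := by
      have := Fintype.ofFinite G
      rw [Module.finrank_eq_card_basis (MonoidAlgebra.basis G K), Nat.card_eq_fintype_card]
    have h2 : Module.finrank K (Π i, Matrix (Fin (d i)) (Fin (d i)) K) = ∑ i, d i * d i := by
      rw [Module.finrank_pi_fintype]
      refine Finset.sum_congr rfl fun i _ => ?_
      simp [Module.finrank_matrix]
    rw [← h1, ← h2]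
    exact e.toLinearEquiv.finrank_eq.symm
  have hbij := lift_bijective (lift_injective hG ht) hdim
  -- the reduction of `τ₀`
  let f : ZMod p →+* Res O := ZMod.castHom (dvd_refl p) (Res O)
  let τ : G →* Matrix (Fin n) (Fin n) (Res O) := (f.mapMatrix (m := Fin n)).toMonoidHom.comp τ₀
  have hτ : ∀ g : G, g ≠ 1 → ∀ v : Fin n → Res O, τ g *ᵥ v = v → v = 0 := by
    intro g hg v hv
    have hdet : (τ₀ g - 1).det ≠ 0 := by
      intro h0
      obtain ⟨u, hu0, hu⟩ := Matrix.exists_mulVec_eq_zero_iff.mpr h0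
      apply hu0
      apply hτ₀ g hg
      rw [Matrix.sub_mulVec, Matrix.one_mulVec, sub_eq_zero] at hu
      exact hu
    have hdet' : (τ g - 1).det ≠ 0 := by
      have h1 : τ g - 1 = f.mapMatrix (τ₀ g - 1) := by
        simp [τ, map_sub]
      rw [h1, ← RingHom.map_det]
      exact (map_ne_zero f).mpr hdet
    by_contra hv0
    exact hdet' (Matrix.exists_mulVec_eq_zero_iff.mp ⟨v, hv0, by
      rw [Matrix.sub_mulVec, Matrix.one_mulVec, hv, sub_self]⟩)
  obtain ⟨i, hi⟩ := exists_fpf_factor hbij hn τ hτ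
  refine ⟨d i, ρ i, Nat.pos_of_ne_zero (hd i).out, ?_, ?_⟩
  · intro g hg u hu
    exact fpf_of_reduction (hP i) (hPρ i) g (hi g hg) u hu
  · intro W hW
    by_cases hW0 : W = ⊥
    · exact Or.inl hW0
    right
    -- every matrix is a combination of the `ρ i g`
    have hall : ∀ (A : Matrix (Fin (d i)) (Fin (d i)) K), ∀ w ∈ W, A *ᵥ w ∈ W := by
      intro A w hw
      have hx : e (e.symm (Pi.single i A)) i = A := by simp
      rw [← hx]
      induction (e.symm (Pi.single i A)) using MonoidAlgebra.induction_linear with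
      | zero => simp
      | add a b ha hb =>
        simp only [map_add, Pi.add_apply, Matrix.add_mulVec]
        exact W.add_mem ha hb
      | single g c =>
        have h1 : MonoidAlgebra.single g c = c • MonoidAlgebra.of K G g := by
          simp [MonoidAlgebra.of_apply, MonoidAlgebra.smul_single]
        rw [h1, map_smul, Pi.smul_apply, Matrix.smul_mulVec]
        exact W.smul_mem c (hW g w hw)
    obtain ⟨w, hw, hw0⟩ := Submodule.exists_mem_ne_zero_of_ne_bot hW0
    obtain ⟨s, hs⟩ : ∃ s, w s ≠ 0 := by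
      by_contra hcon
      push Not at hcon
      exact hw0 (funext hcon)
    rw [eq_top_iff]
    intro x _
    have h1 : x = (Matrix.vecMulVec ((w s)⁻¹ • x) (Pi.single s 1)) *ᵥ w := by
      funext t
      simp only [Matrix.mulVec, dotProduct, Matrix.vecMulVec_apply, Pi.smul_apply, smul_eq_mul]
      rw [Finset.sum_eq_single s]
      · simp only [Pi.single_eq_same, mul_one]
        field_simp
      · intro j _ hj
        simp [Pi.single_eq_of_ne hj]
      · simp
    rw [h1]
    exact hall _ w hw

end Top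

end Cfsg.Agent.Lib.Frobenius.Lift
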