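import Cfsg.Agent.Lib.Frobenius.QuatSquare
import Cfsg.Agent.Lib.Frobenius.Conjugacy

/-!
# Frobenius complements containing `Q₈`: the kernel has odd square order
-/

set_option autoImplicit false
set_option linter.unusedSectionVars false
set_option linter.style.haveILetI false

namespace Cfsg.Agent.Lib.Frobenius.QuatKernel

open Cfsg Cfsg.Agent.Lib.Frobenius.Basic Cfsg.Agent.Lib.Frobenius.Theorem
  Cfsg.Agent.Lib.Frobenius.Conjugacy

variable {L : Type*} [Group L] [Finite L] {H : Subgroup L}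

theorem odd_card_kernel (hH : IsFrobeniusComplement H) {t : L} (ht : t ∈ H) (ht1 : t ≠ 1)
    (htt : t * t = 1) : Odd (Nat.card (kernel H)) := by
  by_contra hne
  rw [Nat.not_odd_iff_even] at hne
  haveI := Fact.mk Nat.prime_two
  obtain ⟨x, hx⟩ := exists_prime_orderOf_dvd_card' 2 hne.two_dvd
  have hx1 : (x : L) ≠ 1 := by
    intro h
    have : x = 1 := Subtype.ext h
    rw [this, orderOf_one] at hx
    omega
  have hxx : (x : L)⁻¹ = x := by
    have : x * x = 1 := by rw [← pow_two, ← hx, pow_orderOf_eq_one]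
    have h2 := congrArg Subtype.val this
    exact inv_eq_of_mul_eq_one_left h2
  have h1 := involution_inverts_kernel hH ht ht1 htt ((mem_kernel_iff hH).1 x.2)
  rw [hxx] at h1
  exact hx1 (eq_one_of_mem_kernel_of_conj_eq hH x.2 ht ht1 h1)

theorem comm_kernel (hH : IsFrobeniusComplement H) {t : L} (ht : t ∈ H) (ht1 : t ≠ 1)
    (htt : t * t = 1) {x y : L} (hx : x ∈ kernel H) (hy : y ∈ kernel H) : x * y = y * x := by
  have h1 := involution_inverts_kernel hH ht ht1 htt ((mem_kernel_iff hH).1 hx)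
  have h2 := involution_inverts_kernel hH ht ht1 htt ((mem_kernel_iff hH).1 hy)
  have h3 := involution_inverts_kernel hH ht ht1 htt
    ((mem_kernel_iff hH).1 ((kernel H).mul_mem hx hy))
  have h4 : t * (x * y) * t⁻¹ = (t * x * t⁻¹) * (t * y * t⁻¹) := by group
  rw [h4, h1, h2] at h3
  have h5 : (x⁻¹ * y⁻¹)⁻¹ = (x * y)⁻¹⁻¹ := by rw [h3]
  rw [mul_inv_rev, inv_inv, inv_inv, inv_inv] at h5
  exact h5.symm

theorem odd_isSquare_of_quat (hH : IsFrobeniusComplement H) {q₁ q₂ t : L} (h₁ : q₁ ∈ H)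
    (ht1 : t ≠ 1) (hq₁ : q₁ * q₁ = t) (hq₂ : q₂ * q₂ = t) (htt : t * t = 1) (h₂ : q₂ ∈ H)
    (hinv : q₂ * q₁ * q₂⁻¹ = q₁⁻¹) :
    Odd (Nat.card (kernel H)) ∧ IsSquare (Nat.card (kernel H)) := by
  have ht : t ∈ H := hq₁ ▸ H.mul_mem h₁ h₁
  have hodd := odd_card_kernel hH ht ht1 htt
  refine ⟨hodd, ?_⟩
  haveI := kernel_normal H
  letI : CommGroup (kernel H) :=
    { (inferInstance : Group (kernel H)) with
      mul_comm := fun x y => Subtype.ext (comm_kernel hH ht ht1 htt x.2 y.2) }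
  let cj : L → (kernel H →* kernel H) := fun q => (MulAut.conjNormal q).toMonoidHom
  have hcj : ∀ (q : L) (x : kernel H), ((cj q x : kernel H) : L) = q * x * q⁻¹ :=
    fun q x => MulAut.conjNormal_apply q x
  let A : Additive (kernel H) →+ Additive (kernel H) := (cj q₁).toAdditive
  let B : Additive (kernel H) →+ Additive (kernel H) := (cj q₂).toAdditive
  have hA' : ∀ v : Additive (kernel H), ((A v).toMul : L) = q₁ * (v.toMul : L) * q₁⁻¹ :=
    fun v => hcj q₁ v.toMul
  have hB' : ∀ v : Additive (kernel H), ((B v).toMul : L) = q₂ * (v.toMul : L) * q₂⁻¹ :=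
    fun v => hcj q₂ v.toMul
  have hneg : ∀ v : Additive (kernel H), ((-v).toMul : L) = (v.toMul : L)⁻¹ := fun v => rfl
  have hinvK : ∀ v : Additive (kernel H), t * (v.toMul : L) * t⁻¹ = (v.toMul : L)⁻¹ := fun v =>
    involution_inverts_kernel hH ht ht1 htt ((mem_kernel_iff hH).1 v.toMul.2)
  have hext : ∀ v w : Additive (kernel H), (v.toMul : L) = (w.toMul : L) → v = w := by
    intro v w h
    exact Additive.toMul.injective (Subtype.ext h)
  apply QuatSquare.isSquare_card A B hodd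
  · intro v
    apply hext
    rw [hA', hA', hneg, ← hinvK, ← hq₁]
    group
  · intro v
    apply hext
    rw [hB', hB', hneg, ← hinvK, ← hq₂]
    group
  · intro v
    apply hext
    rw [hA', hB', hneg, ← hinvK (B (A v)), hB', hA', ← hq₁]
    have h5 : q₂ * q₁ = q₁⁻¹ * q₂ := by
      rw [← hinv]; group
    have h6 : q₁ * q₁ * (q₂ * (q₁ * (v.toMul : L) * q₁⁻¹) * q₂⁻¹) * (q₁ * q₁)⁻¹ =
        q₁ * q₁ * ((q₂ * q₁) * (v.toMul : L) * (q₂ * q₁)⁻¹) * (q₁ * q₁)⁻¹ := by group
    rw [h6, h5]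
    group

end Cfsg.Agent.Lib.Frobenius.QuatKernel
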