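import Cfsg.Agent.Lib.Frobenius.QuatKernel
import Cfsg.Agent.Lib.Frobenius.Construct
import Cfsg.Agent.Lib.Frobenius.ClassSizes

/-!
# Relations in generalised quaternion groups; homomorphisms out of them
-/

set_option autoImplicit false
set_option linter.unusedSectionVars false
set_option linter.style.haveILetI false

namespace Cfsg.Agent.Lib.Frobenius.QuatLift

open Cfsg Cfsg.Agent.Lib.Frobenius.Basic Cfsg.Agent.Lib.Frobenius.Theorem
  Cfsg.Agent.Lib.Frobenius.Conjugacy QuaternionGroup

/-- Relations in `QuaternionGroup (2 * r)`. -/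
theorem quat_relations (r : ℕ) [NeZero r] :
    let q₁ : QuaternionGroup (2 * r) := a (r : ZMod (2 * (2 * r)))
    let q₂ : QuaternionGroup (2 * r) := xa 0
    let t : QuaternionGroup (2 * r) := a ((2 * r : ℕ) : ZMod (2 * (2 * r)))
    t ≠ 1 ∧ q₁ * q₁ = t ∧ q₂ * q₂ = t ∧ t * t = 1 ∧ q₂ * q₁ * q₂⁻¹ = q₁⁻¹ := by
  intro q₁ q₂ t
  have h0 : ((2 * (2 * r) : ℕ) : ZMod (2 * (2 * r))) = 0 := ZMod.natCast_self _
  push_cast at h0
  refine ⟨?_, ?_, ?_, ?_, ?_⟩
  · intro h
    have h1 : ((2 * r : ℕ) : ZMod (2 * (2 * r))) = 0 := a.inj (h.trans (a_zero).symm)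
    rw [ZMod.natCast_eq_zero_iff] at h1
    have hr : 0 < r := Nat.pos_of_ne_zero (NeZero.ne r)
    have := Nat.le_of_dvd (by omega) h1
    omega
  · simp only [q₁, t, a_mul_a]
    congr 1
    push_cast
    ring
  · simp only [q₂, t, xa_mul_xa]
    congr 1
    simp
  · simp only [t, a_mul_a, one_def]
    congr 1
    push_cast
    linear_combination h0
  · rw [mul_inv_eq_iff_eq_mul, eq_inv_mul_iff_mul_eq]
    simp only [q₁, q₂, xa_mul_a, a_mul_xa]
    congr 1
    ring

section Lift

variable {M : Type*} [Group M] (n : ℕ) [NeZero n] (A B : M) (hA : A ^ (2 * n) = 1)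
  (hB : B * B = A ^ n) (hAB : A * B = B * A⁻¹)

/-- Powers of `A` indexed by `ZMod (2 * n)`. -/
noncomputable def fA (i : ZMod (2 * n)) : M := A ^ i.val

include hA in
theorem fA_add (i j : ZMod (2 * n)) : fA n A (i + j) = fA n A i * fA n A j := by
  unfold fA
  rw [ZMod.val_add, ← pow_eq_pow_mod _ hA, pow_add]

include hA in
theorem fA_zero : fA n A 0 = 1 := by
  simp [fA]

include hA in
theorem fA_neg (i : ZMod (2 * n)) : fA n A (-i) = (fA n A i)⁻¹ := by
  rw [eq_inv_iff_mul_eq_one, ← fA_add n A hA, neg_add_cancel, fA_zero n A hA]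

include hA in
theorem fA_comm (i j : ZMod (2 * n)) : fA n A i * fA n A j = fA n A j * fA n A i := by
  rw [← fA_add n A hA, ← fA_add n A hA, add_comm]

include hA hAB in
theorem fA_mul_B (i : ZMod (2 * n)) : fA n A i * B = B * fA n A (-i) := by
  rw [fA_neg n A hA]
  unfold fA
  induction i.val with
  | zero => simp
  | succ k ih =>
    have hL : A ^ (k + 1) * B = A ^ k * (A * B) := by rw [pow_succ, mul_assoc]
    rw [hL, hAB, ← mul_assoc, ih, pow_succ', mul_inv_rev, mul_assoc]

include hA in
theorem fA_natCast : fA n A ((n : ℕ) : ZMod (2 * n)) = A ^ n := by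
  unfold fA
  rw [ZMod.val_natCast, Nat.mod_eq_of_lt]
  have : 0 < n := Nat.pos_of_ne_zero (NeZero.ne n)
  omega

/-- The homomorphism determined by the images of the generators. -/
noncomputable def quatLiftFun : QuaternionGroup n → M
  | a i => fA n A i
  | xa i => B * fA n A i

include hA hB hAB in
theorem quatLiftFun_mul (x y : QuaternionGroup n) :
    quatLiftFun n A B (x * y) = quatLiftFun n A B x * quatLiftFun n A B y := by
  rcases x with i | i <;> rcases y with j | j
  · simp only [a_mul_a, quatLiftFun]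
    exact fA_add n A hA i j
  · simp only [a_mul_xa, quatLiftFun]
    rw [← mul_assoc, fA_mul_B n A B hA hAB, mul_assoc, ← fA_add n A hA, sub_eq_add_neg, add_comm]
  · simp only [xa_mul_a, quatLiftFun]
    rw [fA_add n A hA, mul_assoc]
  · simp only [xa_mul_xa, quatLiftFun]
    have h1 : ((n : ℕ) : ZMod (2 * n)) + j - i = ((n : ℕ) : ZMod (2 * n)) + (-i + j) := by ring
    rw [h1, fA_add n A hA, fA_natCast n A hA, fA_add n A hA, ← hB]
    calc B * B * (fA n A (-i) * fA n A j) = B * (B * fA n A (-i)) * fA n A j := by group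
      _ = B * (fA n A i * B) * fA n A j := by rw [fA_mul_B n A B hA hAB]
      _ = _ := by group

/-- The homomorphism determined by the images of the generators. -/
noncomputable def quatLift : QuaternionGroup n →* M :=
  MonoidHom.mk' (quatLiftFun n A B) (quatLiftFun_mul n A B hA hB hAB)

theorem quatLift_a (i : ZMod (2 * n)) : quatLift n A B hA hB hAB (a i) = A ^ i.val := rfl

theorem quatLift_xa (i : ZMod (2 * n)) : quatLift n A B hA hB hAB (xa i) = B * A ^ i.val := rfl

end Lift

end Cfsg.Agent.Lib.Frobenius.QuatLift
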