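import Cfsg.Agent.Lib.Frobenius.QuatLift

/-!
# Fixed-point-free actions of `Q₈` on abelian groups of odd square order
-/

set_option autoImplicit false
set_option linter.unusedSectionVars false
set_option linter.style.haveILetI false

namespace Cfsg.Agent.Lib.Frobenius.QuatModel

open Cfsg Cfsg.Agent.Lib.Frobenius.Basic Cfsg.Agent.Lib.Frobenius.Theorem
  Cfsg.Agent.Lib.Frobenius.Conjugacy Cfsg.Agent.Lib.Frobenius.QuatLift QuaternionGroup

/-- Abelian groups of order `k * k` with anticommuting square roots of `-1`. -/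
def Model (k : ℕ) : Prop :=
  ∃ (V : Type) (_ : AddCommGroup V) (_ : Finite V) (A B : V →+ V), Nat.card V = k * k ∧
    (∀ v, A (A v) = -v) ∧ (∀ v, B (B v) = -v) ∧ (∀ v, A (B v) = - B (A v))

theorem model_one : Model 1 :=
  ⟨Unit, inferInstance, inferInstance, 0, 0, by simp, fun _ => rfl, fun _ => rfl, fun _ => rfl⟩

theorem model_prime {p : ℕ} (hp : p.Prime) : Model p := by
  haveI := Fact.mk hp
  obtain ⟨a, b, hab⟩ := ZMod.sq_add_sq p (-1 : ZMod p)
  let A : ZMod p × ZMod p →+ ZMod p × ZMod p :=
    { toFun := fun v => (-v.2, v.1)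
      map_zero' := by simp
      map_add' := fun v w => by ext <;> simp; ring }
  let B : ZMod p × ZMod p →+ ZMod p × ZMod p :=
    { toFun := fun v => (a * v.1 + b * v.2, b * v.1 - a * v.2)
      map_zero' := by simp
      map_add' := fun v w => by ext <;> simp <;> ring }
  refine ⟨ZMod p × ZMod p, inferInstance, inferInstance, A, B, ?_, ?_, ?_, ?_⟩
  · rw [Nat.card_prod, Nat.card_zmod]
  · intro v
    ext <;> simp [A]
  · intro v
    have h1 : a ^ 2 = -1 - b ^ 2 := by rw [← hab]; ring
    ext
    · show a * (a * v.1 + b * v.2) + b * (b * v.1 - a * v.2) = -v.1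
      linear_combination v.1 * hab
    · show b * (a * v.1 + b * v.2) - a * (b * v.1 - a * v.2) = -v.2
      linear_combination v.2 * hab
  · intro v
    ext
    · show -(b * v.1 - a * v.2) = -(a * (-v.2) + b * v.1)
      ring
    · show a * v.1 + b * v.2 = -(b * (-v.2) - a * v.1)
      ring

theorem model_mul {k l : ℕ} (hk : Model k) (hl : Model l) : Model (k * l) := by
  obtain ⟨V, i1, i2, A, B, h1, h2, h3, h4⟩ := hk
  obtain ⟨W, j1, j2, C, D, g1, g2, g3, g4⟩ := hl
  refine ⟨V × W, inferInstance, inferInstance, A.prodMap C, B.prodMap D, ?_, ?_, ?_, ?_⟩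
  · rw [Nat.card_prod, h1, g1]
    ring
  · intro v
    ext
    · exact h2 v.1
    · exact g2 v.2
  · intro v
    ext
    · exact h3 v.1
    · exact g3 v.2
  · intro v
    ext
    · exact h4 v.1
    · exact g4 v.2

theorem model_of_odd : ∀ k : ℕ, Odd k → Model k := by
  intro k
  induction k using Nat.recOnMul with
  | zero => intro h; exact absurd h (by decide)
  | one => intro _; exact model_one
  | prime p hp => intro _; exact model_prime hp
  | mul a b iha ihb =>
    intro h
    rw [Nat.odd_mul] at h
    exact model_mul (iha h.1) (ihb h.2)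

/-- The Frobenius groups with complement `Q₈`. -/
theorem exists_frobenius {k : ℕ} (hk : Odd k) (hk1 : 1 < k) :
    ∃ (L : Type) (_ : Group L) (_ : Finite L) (H : Subgroup L), IsFrobeniusComplement H ∧
      Nonempty (H ≃* QuaternionGroup 2) ∧ Nat.card (frobeniusKernel H) = k * k := by
  obtain ⟨V, i1, i2, A, B, hcard, hA, hB, hAB⟩ := model_of_odd k hk
  have hoddV : Odd (Nat.card V) := by
    rw [hcard]
    exact hk.mul hk
  haveI : Nontrivial V := by
    apply Finite.one_lt_card_iff_nontrivial.1
    rw [hcard]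
    nlinarith
  have hneg : ∀ {v : V}, -v = v → v = 0 := by
    intro v hv
    have h2 : 2 • v = 0 := by
      rw [two_nsmul]
      nth_rw 1 [← hv]
      simp
    have h3 : addOrderOf v ∣ 2 := addOrderOf_dvd_of_nsmul_eq_zero h2
    have h4 : addOrderOf v ∣ Nat.card V := addOrderOf_dvd_natCard v
    have h5 : Nat.Coprime 2 (Nat.card V) := Nat.coprime_two_left.2 hoddV
    have h6 : addOrderOf v = 1 := Nat.eq_one_of_dvd_coprimes h5 h3 h4
    exact AddMonoid.addOrderOf_eq_one_iff.1 h6
  let A' : MulAut (Multiplicative V) :=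
    { toFun := fun v => Multiplicative.ofAdd (A v.toAdd)
      invFun := fun v => Multiplicative.ofAdd (- A v.toAdd)
      left_inv := fun v => by simp [hA]
      right_inv := fun v => by simp [hA]
      map_mul' := fun v w => by simp }
  let B' : MulAut (Multiplicative V) :=
    { toFun := fun v => Multiplicative.ofAdd (B v.toAdd)
      invFun := fun v => Multiplicative.ofAdd (- B v.toAdd)
      left_inv := fun v => by simp [hB]
      right_inv := fun v => by simp [hB]
      map_mul' := fun v w => by simp }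
  have hA'v : ∀ v, A' v = Multiplicative.ofAdd (A v.toAdd) := fun _ => rfl
  have hB'v : ∀ v, B' v = Multiplicative.ofAdd (B v.toAdd) := fun _ => rfl
  have hA2 : ∀ v, (A' ^ 2) v = v⁻¹ := by
    intro v
    rw [pow_two, MulAut.mul_apply, hA'v, hA'v]
    simp [hA]
  have hA4 : A' ^ (2 * 2) = 1 := by
    ext v
    rw [pow_mul, pow_two (A' ^ 2), MulAut.mul_apply, hA2, hA2, inv_inv]
    rfl
  have hB2 : B' * B' = A' ^ 2 := by
    ext v
    rw [hA2, MulAut.mul_apply, hB'v, hB'v]
    simp [hB]
  have hAinv : ∀ v, A'⁻¹ v = Multiplicative.ofAdd (- A v.toAdd) := fun _ => rfl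
  have hAB' : A' * B' = B' * A'⁻¹ := by
    ext v
    rw [MulAut.mul_apply, MulAut.mul_apply, hA'v, hB'v, hB'v, hAinv]
    simp [hAB]
  let φ : QuaternionGroup 2 →* MulAut (Multiplicative V) := quatLift 2 A' B' hA4 hB2 hAB'
  have hdec : ∀ g : QuaternionGroup 2, g ≠ 1 → g = a 2 ∨ g * g = a 2 := by decide
  have hρt : ∀ v, φ (a 2) v = v⁻¹ := by
    intro v
    have h1 : φ (a 2) = A' ^ (2 : ZMod (2 * 2)).val := quatLift_a 2 A' B' hA4 hB2 hAB' 2
    have h2 : (2 : ZMod (2 * 2)).val = 2 := by decide
    rw [h1, h2, hA2]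
  have hfpf : ∀ g : QuaternionGroup 2, g ≠ 1 → ∀ v : Multiplicative V, φ g v = v → v = 1 := by
    intro g hg v hv
    have h3 : φ (a 2) v = v := by
      rcases hdec g hg with h | h
      · rw [← h]; exact hv
      · rw [← h, map_mul, MulAut.mul_apply, hv, hv]
    rw [hρt] at h3
    have h4 := hneg (v := v.toAdd) (congrArg Multiplicative.toAdd h3)
    exact Multiplicative.toAdd.injective h4
  haveI : Nontrivial (Multiplicative V) := inferInstanceAs (Nontrivial V)
  have hC := Cfsg.Agent.Lib.Frobenius.Construct.inr_range_isFrobeniusComplement φ hfpf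
  haveI hfin : Finite (Multiplicative V ⋊[φ] QuaternionGroup 2) :=
    Finite.of_equiv _ (SemidirectProduct.equivProd (N := Multiplicative V) (G := QuaternionGroup 2) (φ := φ)).symm
  refine ⟨Multiplicative V ⋊[φ] QuaternionGroup 2, inferInstance, hfin, _, hC,
    ⟨(MonoidHom.ofInjective SemidirectProduct.inr_injective).symm⟩, ?_⟩
  have h1 : Nat.card (frobeniusKernel (SemidirectProduct.inr : QuaternionGroup 2 →*
      Multiplicative V ⋊[φ] QuaternionGroup 2).range) = Nat.card (kernel (SemidirectProduct.inr :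
        QuaternionGroup 2 →* Multiplicative V ⋊[φ] QuaternionGroup 2).range) := by
    rw [← coe_kernel hC]
    rfl
  rw [h1, card_kernel hC, ← hcard]
  have h2 := Subgroup.card_mul_index (SemidirectProduct.inr : QuaternionGroup 2 →*
      Multiplicative V ⋊[φ] QuaternionGroup 2).range
  have h3 : Nat.card (SemidirectProduct.inr : QuaternionGroup 2 →*
      Multiplicative V ⋊[φ] QuaternionGroup 2).range = Nat.card (QuaternionGroup 2) :=
    Nat.card_congr (MonoidHom.ofInjective SemidirectProduct.inr_injective).symm.toEquiv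
  have h4 : Nat.card (Multiplicative V ⋊[φ] QuaternionGroup 2) =
      Nat.card V * Nat.card (QuaternionGroup 2) := by
    rw [Nat.card_congr (SemidirectProduct.equivProd (N := Multiplicative V)
      (G := QuaternionGroup 2) (φ := φ)), Nat.card_prod]
    rfl
  rw [h3, h4, mul_comm] at h2
  exact Nat.eq_of_mul_eq_mul_right Nat.card_pos h2

end Cfsg.Agent.Lib.Frobenius.QuatModel
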