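import Mathlib

/-!
# Finite abelian groups of odd order with a fixed-point-free `Q₈` action have square order
-/

set_option autoImplicit false
set_option linter.unusedSectionVars false
set_option linter.style.haveILetI false

namespace Cfsg.Agent.Lib.Frobenius.QuatSquare

variable {V : Type*} [AddCommGroup V] (A B : V →+ V)

/-- The part killed by `p`. -/
theorem isSquare_card_elementary [Finite V] {p : ℕ} (hp : p.Prime) (hp2 : p ≠ 2)
    (hA : ∀ v, A (A v) = -v) (hB : ∀ v, B (B v) = -v) (hAB : ∀ v, A (B v) = - B (A v))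
    (U : AddSubgroup V) (hUA : ∀ v ∈ U, A v ∈ U) (hUB : ∀ v ∈ U, B v ∈ U)
    (hUp : ∀ v ∈ U, p • v = 0) : IsSquare (Nat.card U) := by
  haveI := Fact.mk hp
  obtain ⟨a, b, hab⟩ := ZMod.sq_add_sq p (-1 : ZMod p)
  -- integers `x`, `y` with `p ∣ x ^ 2 + y ^ 2 + 1`
  obtain ⟨x, hx⟩ := ZMod.intCast_surjective a
  obtain ⟨y, hy⟩ := ZMod.intCast_surjective b
  have hdvd : (p : ℤ) ∣ x * x + y * y + 1 := by
    rw [← ZMod.intCast_zmod_eq_zero_iff_dvd]
    push_cast
    rw [hx, hy, ← pow_two, ← pow_two, hab]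
    ring
  have hkill : ∀ v ∈ U, (x * x + y * y + 1 : ℤ) • v = 0 := by
    intro v hv
    obtain ⟨k, hk⟩ := hdvd
    rw [hk, mul_comm, mul_smul, natCast_zsmul, hUp v hv, smul_zero]
  -- two is invertible
  have hodd : Odd p := hp.odd_of_ne_two hp2
  obtain ⟨k, hk⟩ := hodd
  -- `r = k + 1`: `2 * r = p + 1`
  set s : ℤ := (k : ℤ) + 1 with hs
  have h2s : ∀ v ∈ U, (2 * s) • v = v := by
    intro v hv
    have h1 : (2 * s) = (p : ℤ) + 1 := by rw [hs, hk]; push_cast; ring
    rw [h1, add_smul, natCast_zsmul, hUp v hv, zero_add, one_smul]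
  -- the involution
  let u : V →+ V := x • A + y • B
  have hu : ∀ v, u v = x • A v + y • B v := fun v => rfl
  have huU : ∀ v ∈ U, u v ∈ U := fun v hv =>
    U.add_mem (U.zsmul_mem (hUA v hv) x) (U.zsmul_mem (hUB v hv) y)
  have huu : ∀ v ∈ U, u (u v) = v := by
    intro v hv
    have h1 := hkill v hv
    simp only [hu, map_add, map_zsmul, hA, hB, hAB, smul_add, smul_neg, smul_smul]
    calc _ = v - (x * x + y * y + 1) • v := by module
      _ = v := by rw [h1, sub_zero]
  let c : V →+ V := A.comp B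
  have hc : ∀ v, c v = A (B v) := fun v => rfl
  have hcU : ∀ v ∈ U, c v ∈ U := fun v hv => hUA _ (hUB v hv)
  have hcc : ∀ v, c (c v) = -v := by
    intro v
    simp only [hc]
    rw [hAB (A (B v)), hA, map_neg, neg_neg, hB]
  have hcu : ∀ v, u (c v) = - c (u v) := by
    intro v
    simp only [hc, hu, map_add, map_zsmul, hAB, hA, hB, map_neg, neg_neg, smul_neg]
    module
  let Up := {v : V // v ∈ U ∧ u v = v}
  let Um := {v : V // v ∈ U ∧ u v = -v}
  have e1 : Nat.card Up = Nat.card Um := by
    apply Nat.card_congr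
    refine
      { toFun := fun v => ⟨c v.1, hcU _ v.2.1, ?_⟩
        invFun := fun v => ⟨- c v.1, U.neg_mem (hcU _ v.2.1), ?_⟩
        left_inv := fun v => ?_
        right_inv := fun v => ?_ }
    · rw [hcu, v.2.2]
    · rw [map_neg, hcu, v.2.2, map_neg]
      simp
    · apply Subtype.ext
      show - c (c v.1) = v.1
      rw [hcc, neg_neg]
    · apply Subtype.ext
      show c (- c v.1) = v.1
      rw [map_neg, hcc, neg_neg]
  have e2 : Nat.card U = Nat.card Up * Nat.card Um := by
    rw [← Nat.card_prod]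
    apply Nat.card_congr
    refine
      { toFun := fun v => (⟨s • (v.1 + u v.1), U.zsmul_mem (U.add_mem v.2 (huU _ v.2)) s, ?_⟩,
          ⟨s • (v.1 - u v.1), U.zsmul_mem (U.sub_mem v.2 (huU _ v.2)) s, ?_⟩)
        invFun := fun w => ⟨w.1.1 + w.2.1, U.add_mem w.1.2.1 w.2.2.1⟩
        left_inv := fun v => ?_
        right_inv := fun w => ?_ }
    · rw [map_zsmul, map_add, huu _ v.2, add_comm]
    · rw [map_zsmul, map_sub, huu _ v.2, ← smul_neg, neg_sub]
    · apply Subtype.ext
      show s • (v.1 + u v.1) + s • (v.1 - u v.1) = v.1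
      have h1 := h2s _ v.2
      calc _ = (2 * s) • v.1 := by module
        _ = v.1 := h1
    · apply Prod.ext
      · apply Subtype.ext
        show s • (w.1.1 + w.2.1 + u (w.1.1 + w.2.1)) = w.1.1
        rw [map_add, w.1.2.2, w.2.2.2]
        have h1 := h2s _ w.1.2.1
        calc _ = (2 * s) • w.1.1 := by module
          _ = w.1.1 := h1
      · apply Subtype.ext
        show s • (w.1.1 + w.2.1 - u (w.1.1 + w.2.1)) = w.2.1
        rw [map_add, w.1.2.2, w.2.2.2]
        have h1 := h2s _ w.2.2.1
        calc _ = (2 * s) • w.2.1 := by module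
          _ = w.2.1 := h1
  rw [e2, e1]
  exact ⟨_, rfl⟩

/-- Any invariant subgroup has square order. -/
theorem isSquare_card_sub [Finite V] (hodd : Odd (Nat.card V))
    (hA : ∀ v, A (A v) = -v) (hB : ∀ v, B (B v) = -v) (hAB : ∀ v, A (B v) = - B (A v)) :
    ∀ (n : ℕ) (W : AddSubgroup V), Nat.card W = n → (∀ v ∈ W, A v ∈ W) → (∀ v ∈ W, B v ∈ W) →
      IsSquare (Nat.card W) := by
  intro n
  induction n using Nat.strong_induction_on with
  | _ n ih =>
  intro W hW hWA hWB
  by_cases hn : n = 1
  · rw [hW, hn]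
    exact ⟨1, rfl⟩
  have hn' : Nat.card W ≠ 1 := by rw [hW]; exact hn
  obtain ⟨p, hp, hpd⟩ := Nat.exists_prime_and_dvd hn'
  haveI := Fact.mk hp
  have hpV : p ∣ Nat.card V := hpd.trans (AddSubgroup.card_addSubgroup_dvd_card W)
  have hp2 : p ≠ 2 := by
    rintro rfl
    exact (Nat.not_even_iff_odd.2 hodd) (even_iff_two_dvd.2 hpV)
  let f : V →+ V := nsmulAddMonoidHom p
  have hf : ∀ v, f v = p • v := fun v => rfl
  let U : AddSubgroup V := W ⊓ f.ker
  let W' : AddSubgroup V := W.map f
  have hU : IsSquare (Nat.card U) := by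
    apply isSquare_card_elementary A B hp hp2 hA hB hAB U
    · rintro v ⟨h1, h2⟩
      refine ⟨hWA v h1, ?_⟩
      have h3 : p • v = 0 := h2
      show p • A v = 0
      rw [← map_nsmul, h3, map_zero]
    · rintro v ⟨h1, h2⟩
      refine ⟨hWB v h1, ?_⟩
      have h3 : p • v = 0 := h2
      show p • B v = 0
      rw [← map_nsmul, h3, map_zero]
    · rintro v ⟨h1, h2⟩
      exact h2
  have hcard : Nat.card U * Nat.card W' = Nat.card W := by
    let g : W →+ V := f.comp W.subtype
    have h1 : Nat.card g.ker = Nat.card U := by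
      apply Nat.card_congr
      exact
        { toFun := fun x => ⟨x.1.1, x.1.2, x.2⟩
          invFun := fun x => ⟨⟨x.1, x.2.1⟩, x.2.2⟩
          left_inv := fun x => rfl
          right_inv := fun x => rfl }
    have h2 : g.range = W' := by
      rw [AddMonoidHom.range_comp, AddSubgroup.range_subtype]
    have h3 := AddSubgroup.card_mul_index g.ker
    rw [AddSubgroup.index_ker, h1, h2] at h3
    exact h3
  -- `W'` is smaller
  have hlt : Nat.card W' < n := by
    obtain ⟨x, hx⟩ := exists_prime_addOrderOf_dvd_card' p hpd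
    have hU1 : 1 < Nat.card U := by
      apply Finite.one_lt_card_iff_nontrivial.2
      have hxp : p • (x : V) = 0 := by
        have : (p • x) = 0 := by rw [← hx]; exact addOrderOf_nsmul_eq_zero x
        have h3 := congrArg Subtype.val this
        simpa using h3
      refine ⟨⟨⟨x, x.2, hxp⟩, 0, ?_⟩⟩
      intro h
      have h0 : (x : V) = 0 := congrArg Subtype.val h
      have h1 : x = 0 := Subtype.ext h0
      rw [h1, addOrderOf_zero] at hx
      exact hp.one_lt.ne hx
    have hpos : 0 < Nat.card W' := Nat.card_pos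
    rw [← hW, ← hcard]
    nlinarith
  have hW' : IsSquare (Nat.card W') := by
    refine ih _ hlt W' rfl ?_ ?_
    · rintro _ ⟨v, hv, rfl⟩
      refine ⟨A v, hWA v hv, ?_⟩
      show p • A v = A (p • v)
      rw [map_nsmul]
    · rintro _ ⟨v, hv, rfl⟩
      refine ⟨B v, hWB v hv, ?_⟩
      show p • B v = B (p • v)
      rw [map_nsmul]
  rw [← hcard]
  exact hU.mul hW'

/-- A finite abelian group of odd order with anticommuting square roots of `-1` has square order. -/
theorem isSquare_card [Finite V] (hodd : Odd (Nat.card V))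
    (hA : ∀ v, A (A v) = -v) (hB : ∀ v, B (B v) = -v) (hAB : ∀ v, A (B v) = - B (A v)) :
    IsSquare (Nat.card V) := by
  have := isSquare_card_sub A B hodd hA hB hAB _ (⊤ : AddSubgroup V) rfl (fun _ _ => trivial)
    (fun _ _ => trivial)
  rwa [AddSubgroup.card_top] at this

end Cfsg.Agent.Lib.Frobenius.QuatSquare
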